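import Cfsg.Agent.H451.HT.SizeOf
import Cfsg.Agent.H583.HT.Invol
import Cfsg.Agent.H583.HT.Three

/-!
# The case `e = 2`: the size of the module (S3577, S3540, TEAM HT-E, P4c; helper451)

`e_two_size` : `|V| = p ^ 2`, `p ≤ 17`, or `|V| = p ^ 4`, `|K| = p ^ 2`, `p ≤ 11`.
-/

set_option autoImplicit false

namespace Cfsg.Agent.H451.HT

open Cfsg.Agent.H828.HT Cfsg.Agent.H662.HT

universe u

variable {p : ℕ} [Fact p.Prime] {V : Type u} [AddCommGroup V] [Module (ZMod p) V] [Finite V]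
variable {G A F : Subgroup (V ≃ₗ[ZMod p] V)} {K : Type u} [Field K] [Module K V] {χ : A →* Kˣ} {σ : G →* (K ≃+* K)}

/-- P4c: coverage -/
theorem e_two_size [Nontrivial V] (E : ETwo G A F) (hK : KS G A K χ σ) (hp : 5 ≤ p) (hcop : ¬ p ∣ Nat.card G)
    {h : ℕ} (hh : Half G h) (h2 : 2 ≤ h) :
    (Nat.card V = p ^ 2 ∧ (p = 5 ∨ p = 7 ∨ p = 11 ∨ p = 13 ∨ p = 17)) ∨
    (Nat.card V = p ^ 4 ∧ Nat.card K = p ^ 2 ∧ (p = 5 ∨ p = 7 ∨ p = 11)) :=
  e_two_size_of E hK hp hh h2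
    (Cfsg.Agent.H583.HT.count_two_lin E hK hp hcop)
    (fun q₀ hq => Cfsg.Agent.H583.HT.count_two_semi E hK hp hcop hq)
    (fun y hy hy2 hf => Cfsg.Agent.H583.HT.card_two E hK hp hcop hy hy2 hf)
    (Cfsg.Agent.H583.HT.count_three_lin E hK hp hcop)
    (fun y hy hf hσ => Cfsg.Agent.H583.HT.card_three E hK hp hcop hy hf hσ)
    (fun q₀ hq => Cfsg.Agent.H583.HT.count_three_semi E hK hp hcop hq)
    (fun r hr h5 y hy hf => Cfsg.Agent.H583.HT.no_big_lin E hK hr h5 hy hf)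
    (fun r hr h5 q₀ hq => Cfsg.Agent.H583.HT.count_big_semi E hK hp hcop hr h5 hq)

end Cfsg.Agent.H451.HT
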